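import Cfsg.Agent.H0.ML29.D
import Cfsg.Agent.H0.TCL292.Main
import Cfsg.Agent.H0.TCL291.Main
import Cfsg.Agent.H0.TCL290.Main
set_option maxRecDepth 100000
set_option Elab.async false
set_option linter.unusedSectionVars false
namespace H0.ML29
open H0 BN 
theorem rels : ∀ r ∈ B, ev R.p r = 1 := all_take_done (all_take_step (all_take_zero _ B) (rels_of_relsW R c0)) (by decide +kernel)
theorem defs_ok : DefsOK R.p defs 8 := defsOK_of_chk c1
variable {G : Type} [Group G] (P : Pres G 8 B)
noncomputable def m : Model G := P.model defs R rels (by decide +kernel) defs_ok R_ge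
include P
theorem mR : (m P).R = R := rfl
theorem g_eq {x : ℕ} (h : x < 8) : (m P).g x = P.g x := extG_out defs P.g 8 (Or.inl h)
theorem top : gen (m P).g (lets 8) = ⊤ := (gen_extG defs P.g 8 (by decide)).trans P.top
theorem grel : ∀ r ∈ B, ev (m P).g r = 1 := rels_extG defs 8 (by decide +kernel) P.rel
theorem hi : ∀ x < 8, (m P).g x * (m P).g (inv x) = 1 := inv_of_invChk (grel P) (by decide +kernel)
theorem upper : Finite G ∧ Nat.card G ≤ 360 := card_of_top (top P) ((chain_step (σ := [[0], [1], [2], [3], [4], [5], [6], [7]]) (n := 10) H0.TCL290.main rfl rfl (rels_of_consChk (grel P) 8 inv (by decide +kernel)) (chain_step (σ := [[3], [4], [5], [6], [7]]) (n := 9) H0.TCL291.main rfl rfl (rels_of_consChk (grel P) 8 inv (by decide +kernel)) (chain_step (σ := [[6], [7]]) (n := 4) H0.TCL292.main rfl rfl (rels_of_consChk (grel P) 8 inv (by decide +kernel)) (chain_start _)))).imp_right fun h => h.trans (by decide +kernel))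
theorem fin : Finite G := (upper P).1
theorem card_base : Nat.card G = 360 ∧ (m P).pst [2, 1, 0] = ⊥ :=
  haveI := fin P
  (m P).card_done ((m P).card_step (lo := 2) (d := 4) (Model.via _ (mR P) (fun R => Model.fixW R [1, 0] [[6]]) c6) ((m P).inOrb_grow [0, 0, 0] ((m P).inOrb_self _ 2) (Model.via _ (mR P) (fun R => Model.growW R [[6]] [0, 0, 0] (Nat.pow 2 2) (ival 2 4)) c7)) (Model.via _ (mR P) (fun R => Nat.ble (2 + 4) R.N) (by decide +kernel)) ((m P).card_step (lo := 1) (d := 9) (Model.via _ (mR P) (fun R => Model.fixW R [0] [[3], [4]]) c4) ((m P).inOrb_grow [0, 1, 0, 1, 1] ((m P).inOrb_self _ 1) (Model.via _ (mR P) (fun R => Model.growW R [[3], [4]] [0, 1, 0, 1, 1] (Nat.pow 2 1) (ival 1 9)) c5)) (Model.via _ (mR P) (fun R => Nat.ble (1 + 9) R.N) (by decide +kernel)) ((m P).card_step (lo := 0) (d := 10) (Model.via _ (mR P) (fun R => Model.fixW R [] [[0], [1]]) c2) ((m P).inOrb_grow [0, 1, 1, 1, 0] ((m P).inOrb_self _ 0) (Model.via _ (mR P) (fun R => Model.growW R [[0], [1]]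 [0, 1, 1, 1, 0] (Nat.pow 2 0) (ival 0 10)) c3)) (Model.via _ (mR P) (fun R => Nat.ble (0 + 10) R.N) (by decide +kernel)) ((m P).card_start)))) (upper P).2 (by decide +kernel)
theorem card : Nat.card G = 360 := (card_base P).1
theorem base : (m P).pst [2, 1, 0] = ⊥ := (card_base P).2
theorem inj : Function.Injective (m P).φ := (m P).inj_of_base (base P)
theorem trans : (m P).orb ⊤ 0 = Set.Ico 0 (0 + 10) :=
  (m P).orb_eq_ico' ((m P).inOrb_mono le_top ((m P).inOrb_grow [0, 1, 1, 1, 0] ((m P).inOrb_self _ 0) (Model.via _ (mR P) (fun R => Model.growW R [[0], [1]] [0, 1, 1, 1, 0] (Nat.pow 2 0) (ival 0 10)) c8))) (top P).ge (Model.via _ (mR P) (fun R => Model.invW R [[0], [1], [2], [3], [4], [5], [6], [7]] 0 10) c9) (by decide)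
theorem sub1 : (m P).InOrb (gen (m P).g [[3], [4]]) 2 (ival 1 9) := ((m P).inOrb_grow [0, 1, 0, 1, 1, 0] ((m P).inOrb_self _ 2) (Model.via _ (mR P) (fun R => Model.growW R [[3], [4]] [0, 1, 0, 1, 1, 0] (Nat.pow 2 2) (ival 1 9)) c11))
theorem coatom : IsCoatom ((m P).pst [0]) := (m P).coatom (trans P) (by decide) ((m P).maxUpTo_step ((m P).maxUpTo_one 10) (Model.via _ (mR P) (fun R => Model.fixW R [0] [[3], [4]]) c10) (sub1 P) (Model.via _ (mR P) (fun R => Nat.ble (1 + 9) R.N) (by decide +kernel)) (Model.via _ (mR P) (fun R => Nat.ble (0 + 10) R.N) (by decide +kernel)) (Model.via _ (mR P) (fun R => mapsW R [0] (Nat.pow 2 0) (Nat.pow 2 2)) c12) ((m P).inOrb_grow [0, 1, 0, 1, 2, 0, 1] ((m P).inOrb_self _ 0) (Model.via _ (mR P) (fun R => Model.growW R [[0], [3], [4]] [0, 1, 0, 1, 2, 0, 1] (Nat.pow 2 0) (ival 0 10)) c13)))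
theorem ng : ∀ N : Subgroup G, N.Normal → ev (m P).g [8] ∈ N → N = ⊤ :=
  ng_top (hi P) ngSt [8] (by decide) (all_take_done (all_take_step (all_take_zero _ ngR) ((m P).ev_one (inj P) (Model.via _ (mR P) (fun R => relsW R 0 R.lg ((ngR.drop 0).take 16)) c14))) (by decide +kernel)) (top P) (by decide)
theorem card_stab : Nat.card ((m P).pst [0]) = 36 := (m P).card_stab (trans P) (by rw [card P]) (by decide)
theorem simple : IsSimpleGroup G :=
  haveI := fin P
  simple_of_coatom _ (coatom P) (fun N hN h => (m P).normal_le_stab (trans P) (base P) (by decide) N h)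
    (ev (m P).g [8]) 5 (by rw [← ev_wpow]; exact (all_take_done (all_take_step (all_take_zero _ xR) ((m P).ev_one (inj P) (Model.via _ (mR P) (fun R => relsW R 0 R.lg ((xR.drop 0).take 1)) c15))) (by decide +kernel)) _ (List.mem_singleton_self _))
    (by rw [card_stab P]; decide +kernel) (ng P)
end H0.ML29
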